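import Cfsg.Agent.H955.FSBase
import Cfsg.Agent.H955.FSField

/-!
# Stabilisers of orthogonal decompositions (S4940, S4972, S4973)

`V = U ⊥ U'`: `glue hc : GL U × GL U' →* GL V`, `glue_mem_O`, `exists_glue`; `good_stab`: the stabiliser of the
decomposition in `O Q` is contained in (indeed equal to) a subgroup all of whose indicators are one, by the
statement `T0` in smaller dimensions.
-/

set_option autoImplicit false

namespace Cfsg.Agent.H627.FSZero

open Cfsg QuadraticMap Cfsg.Agent.H955.FS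
open Cfsg.Agent.LieClassical.OrthCore

universe u

variable {F V : Type u} [Field F] [AddCommGroup V] [Module F V]

/-- automorphisms of the two parts give automorphisms of the sum -/
noncomputable def glue {U U' : Submodule F V} (hc : IsCompl U U') :
    (U ≃ₗ[F] U) × (U' ≃ₗ[F] U') →* (V ≃ₗ[F] V) where
  toFun p := (Submodule.prodEquivOfIsCompl U U' hc).symm ≪≫ₗ (LinearEquiv.prodCongr p.1 p.2) ≪≫ₗ
    Submodule.prodEquivOfIsCompl U U' hc
  map_one' := by
    apply LinearEquiv.ext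
    intro v
    obtain ⟨x, rfl⟩ := (Submodule.prodEquivOfIsCompl U U' hc).surjective v
    simp only [LinearEquiv.trans_apply, LinearEquiv.symm_apply_apply]
    rfl
  map_mul' p q := by
    apply LinearEquiv.ext
    intro v
    obtain ⟨x, rfl⟩ := (Submodule.prodEquivOfIsCompl U U' hc).surjective v
    simp only [LinearEquiv.trans_apply, LinearEquiv.symm_apply_apply, LinearEquiv.mul_apply]
    rfl

theorem glue_apply {U U' : Submodule F V} (hc : IsCompl U U') (p : (U ≃ₗ[F] U) × (U' ≃ₗ[F] U'))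
    (u : U) (w : U') : glue hc p ((u : V) + w) = (p.1 u : V) + p.2 w := by
  have h1 : ((u : V) + w) = Submodule.prodEquivOfIsCompl U U' hc (u, w) :=
    (Submodule.coe_prodEquivOfIsCompl' U U' hc (u, w)).symm
  rw [h1]
  show Submodule.prodEquivOfIsCompl U U' hc (LinearEquiv.prodCongr p.1 p.2
    ((Submodule.prodEquivOfIsCompl U U' hc).symm (Submodule.prodEquivOfIsCompl U U' hc (u, w)))) = _
  rw [LinearEquiv.symm_apply_apply]
  exact Submodule.coe_prodEquivOfIsCompl' U U' hc (p.1 u, p.2 w)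

theorem exists_add {U U' : Submodule F V} (hc : IsCompl U U') (v : V) :
    ∃ (u : U) (w : U'), v = (u : V) + w := by
  obtain ⟨y, hy, z, hz, rfl⟩ := Submodule.mem_sup.1 (hc.sup_eq_top ▸ Submodule.mem_top : v ∈ U ⊔ U')
  exact ⟨⟨y, hy⟩, ⟨z, hz⟩, rfl⟩

theorem glue_left {U U' : Submodule F V} (hc : IsCompl U U') (p : (U ≃ₗ[F] U) × (U' ≃ₗ[F] U')) (u : U) :
    glue hc p (u : V) = p.1 u := by
  have h := glue_apply hc p u 0
  simpa using h

theorem glue_right {U U' : Submodule F V} (hc : IsCompl U U') (p : (U ≃ₗ[F] U) × (U' ≃ₗ[F] U')) (w : U') :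
    glue hc p (w : V) = p.2 w := by
  have h := glue_apply hc p 0 w
  simpa using h

theorem glue_injective {U U' : Submodule F V} (hc : IsCompl U U') : Function.Injective (glue hc) := by
  intro p q h
  apply Prod.ext
  · apply LinearEquiv.ext
    intro u
    apply Subtype.ext
    rw [← glue_left hc, h, glue_left hc]
  · apply LinearEquiv.ext
    intro w
    apply Subtype.ext
    rw [← glue_right hc, h, glue_right hc]

variable {Q : QuadraticForm F V}

theorem glue_mem_O {U U' : Submodule F V} (hc : IsCompl U U') (horth : ∀ u ∈ U, ∀ w ∈ U', polar Q u w = 0)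
    {p : (U ≃ₗ[F] U) × (U' ≃ₗ[F] U')} (h1 : p.1 ∈ O (Q.comp U.subtype)) (h2 : p.2 ∈ O (Q.comp U'.subtype)) :
    glue hc p ∈ O Q := by
  intro v
  obtain ⟨u, w, rfl⟩ := exists_add hc v
  rw [glue_apply, Q_add, Q_add, horth _ (p.1 u).2 _ (p.2 w).2, horth _ u.2 _ w.2]
  have h3 : Q (p.1 u : V) = Q (u : V) := h1 u
  have h4 : Q (p.2 w : V) = Q (w : V) := h2 w
  rw [h3, h4]

theorem mem_O_of_glue {U U' : Submodule F V} (hc : IsCompl U U')
    {p : (U ≃ₗ[F] U) × (U' ≃ₗ[F] U')} (h : glue hc p ∈ O Q) :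
    p.1 ∈ O (Q.comp U.subtype) ∧ p.2 ∈ O (Q.comp U'.subtype) := by
  refine ⟨fun u => ?_, fun w => ?_⟩
  · show Q (p.1 u : V) = Q (u : V)
    rw [← glue_left hc, h]
  · show Q (p.2 w : V) = Q (w : V)
    rw [← glue_right hc, h]

/-- restriction of an automorphism to an invariant subspace -/
theorem exists_restrict [FiniteDimensional F V] (g : V ≃ₗ[F] V) (U : Submodule F V) (h : ∀ u ∈ U, g u ∈ U) :
    ∃ a : U ≃ₗ[F] U, ∀ u : U, ((a u : U) : V) = g u := by
  let f : U →ₗ[F] U := (g : V →ₗ[F] V).restrict h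
  have hf : Function.Injective f := by
    intro a b hab
    apply Subtype.ext
    apply g.injective
    exact congrArg Subtype.val hab
  exact ⟨LinearEquiv.ofInjectiveEndo f hf, fun u => rfl⟩

theorem exists_glue [FiniteDimensional F V] {U U' : Submodule F V} (hc : IsCompl U U') {g : V ≃ₗ[F] V}
    (h1 : ∀ u ∈ U, g u ∈ U) (h2 : ∀ u ∈ U', g u ∈ U') : ∃ p : (U ≃ₗ[F] U) × (U' ≃ₗ[F] U'), glue hc p = g := by
  obtain ⟨a, ha⟩ := exists_restrict g U h1
  obtain ⟨b, hb⟩ := exists_restrict g U' h2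
  refine ⟨(a, b), LinearEquiv.ext fun v => ?_⟩
  obtain ⟨u, w, rfl⟩ := exists_add hc v
  rw [glue_apply, map_add, ha, hb]

theorem nondeg_left {U U' : Submodule F V} (hQ : Nondeg Q) (hc : IsCompl U U')
    (horth : ∀ u ∈ U, ∀ w ∈ U', polar Q u w = 0) : Nondeg (Q.comp U.subtype) := by
  intro x hx
  apply Subtype.ext
  apply hQ
  intro v
  obtain ⟨u, w, rfl⟩ := exists_add hc v
  rw [polar_add_right, horth _ x.2 _ w.2, add_zero]
  exact hx u

theorem nondeg_right {U U' : Submodule F V} (hQ : Nondeg Q) (hc : IsCompl U U')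
    (horth : ∀ u ∈ U, ∀ w ∈ U', polar Q u w = 0) : Nondeg (Q.comp U'.subtype) :=
  nondeg_left hQ hc.symm fun u hu w hw => by rw [polar_comm]; exact horth w hw u hu

/-- the image of `A × B` under `glue` -/
theorem good_glue [Finite F] [FiniteDimensional F V] {U U' : Submodule F V} (hc : IsCompl U U')
    (A : Subgroup (U ≃ₗ[F] U)) (B : Subgroup (U' ≃ₗ[F] U')) {w : Prop} (hA : FSGood w A) (hB : FSGood w B) :
    FSGood w ((A.prod B).map (glue hc)) := by
  have : Finite V := Module.finite_of_finite F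
  have : Finite (U ≃ₗ[F] U) := Finite.of_injective (fun g : U ≃ₗ[F] U => (g : U → U)) DFunLike.coe_injective
  have : Finite (U' ≃ₗ[F] U') := Finite.of_injective (fun g : U' ≃ₗ[F] U' => (g : U' → U')) DFunLike.coe_injective
  have h1 : FSGood w (A × B) := hA.prod hB
  have h2 : FSGood w (A.prod B) := h1.of_surjective (Subgroup.prodEquiv A B).symm.toMonoidHom
    (Subgroup.prodEquiv A B).symm.surjective
  exact h2.of_surjective ((glue hc).subgroupMap (A.prod B)) ((glue hc).subgroupMap_surjective (A.prod B))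

/-- **stabilisers of orthogonal decompositions** -/
theorem good_stab [Finite F] [CharP F 2] [FiniteDimensional F V] (hQ : Nondeg Q) {n : ℕ}
    (ih : ∀ m < n, T0.{u} m) (hd : Module.finrank F V = 2 * n) {U U' : Submodule F V} (hc : IsCompl U U')
    (hU : U ≠ ⊥) (hU' : U' ≠ ⊥) (horth : ∀ u ∈ U, ∀ w ∈ U', polar Q u w = 0) :
    ∃ Y : Subgroup (V ≃ₗ[F] V), FSGood False Y ∧
      ∀ g : V ≃ₗ[F] V, g ∈ Y ↔ g ∈ O Q ∧ (∀ u ∈ U, g u ∈ U) ∧ (∀ u ∈ U', g u ∈ U') := by
  have hn1 := nondeg_left hQ hc horth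
  have hn2 := nondeg_right hQ hc horth
  obtain ⟨a, ha⟩ := Field2.even_finrank hn1
  obtain ⟨b, hb⟩ := Field2.even_finrank hn2
  have hsum := Submodule.finrank_add_eq_of_isCompl hc
  have hp1 : 0 < Module.finrank F U := by
    have : Nontrivial U := Submodule.nontrivial_iff_ne_bot.2 hU
    exact Module.finrank_pos
  have hp2 : 0 < Module.finrank F U' := by
    have : Nontrivial U' := Submodule.nontrivial_iff_ne_bot.2 hU'
    exact Module.finrank_pos
  have g1 := ih a (by omega) F U (Q.comp U.subtype) hn1 (by omega)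
  have g2 := ih b (by omega) F U' (Q.comp U'.subtype) hn2 (by omega)
  refine ⟨_, good_glue hc _ _ g1 g2, fun g => ⟨?_, ?_⟩⟩
  · rintro ⟨p, hp, rfl⟩
    refine ⟨glue_mem_O hc horth hp.1 hp.2, fun u hu => ?_, fun u hu => ?_⟩
    · rw [show glue hc p u = p.1 ⟨u, hu⟩ from glue_left hc p ⟨u, hu⟩]
      exact (p.1 _).2
    · rw [show glue hc p u = p.2 ⟨u, hu⟩ from glue_right hc p ⟨u, hu⟩]
      exact (p.2 _).2
  · rintro ⟨hg, h1, h2⟩
    obtain ⟨p, rfl⟩ := exists_glue hc h1 h2
    exact ⟨p, mem_O_of_glue hc hg, rfl⟩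

end Cfsg.Agent.H627.FSZero
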